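import Mathlib
import Cfsg.Agent.Lib.AltE7.Chk7
import Cfsg.Agent.Lib.AltE6.Main

/-!
Eigenvalues of elements of order 2, 5, 7 on the 56-dimensional module.
-/

set_option autoImplicit false
set_option linter.unusedSectionVars false

namespace H5.AE

open Module Polynomial H82.AG H38 H5.E8T Equiv Equiv.Perm

universe u

lemma q7_cast (m : ℕ) (v : Fin 7 → ℕ) :
    ((∑ i : Fin 56, ((∑ j, v j * wr T56 (m + 1) (7 * i + j)) % (m + 1)) ^ 2 : ℕ) : ZMod (m + 1)) =
      24 * (q7 m (v 0) (v 1) (v 2) (v 3) (v 4) (v 5) (v 6) : ℕ) := by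
  have h1 : ∀ i, (wr T56 (m + 1) i : ZMod (m + 1)) = (lam T56 i : ℤ) := fun i => by
    rw [← Int.cast_natCast, wr_cast, ZMod.intCast_mod]
  have h2 : (m : ZMod (m + 1)) = -1 := eq_neg_of_add_eq_zero_left (by exact_mod_cast ZMod.natCast_self (m + 1))
  have h3 : ∀ j j' : Fin 7, ∑ i : Fin 56, (v j : ZMod (m + 1)) * lam T56 (7 * i + j) * (v j' * lam T56 (7 * i + j')) =
      v j * v j' * (∑ i : Fin 56, lam T56 (7 * i + j) * lam T56 (7 * i + j') : ℤ) := fun j j' => by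
    push_cast
    rw [Finset.mul_sum]
    exact Finset.sum_congr rfl fun _ _ => mul_mul_mul_comm _ _ _ _
  simp only [Nat.cast_sum, ZMod.natCast_mod, Nat.cast_mul, h1, sq, Finset.sum_mul_sum]
  rw [Finset.sum_comm, Finset.sum_congr rfl fun j _ => Finset.sum_comm]
  simp only [h3, gram7, q7, Nat.add_eq, Nat.mul_eq, Nat.cast_add, Nat.cast_mul, h2]
  simp [Fin.sum_univ_succ, gm7]
  ring

variable {p : ℕ} [Fact p.Prime] {k V : Type} [Field k] [IsAlgClosed k] [CharP k p] [AddCommGroup V] [Module k V]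
  [FiniteDimensional k V] {H : Type u} [Group H] {ρ : H →* End k V} {T N n a : ℕ}

theorem RT.rat (hR : RT p T56 56 7 a ρ) {m S e : ℕ} (hr : (m + 1).Prime) (hp : p ≠ m + 1) {C : ℕ → ℕ}
    (hC : colOk T56 56 7 (m + 1) C = true) (hb : 7 * (m * m) < 256) (h24 : ¬ m + 1 ∣ 24)
    (hq : m + 1 ∣ ∑ s ∈ Finset.range m, (s + 1) ^ 2) (hS : S = ∑ s ∈ Finset.range m, hg6 (s + 1)) (hS0 : 0 < S)
    (he : ∀ s < m + 1, s ≠ 0 → ∃ t < m, e ^ t % (m + 1) = s) {ok : ℕ → Bool}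
    (h : scan7 (m + 1) (G7 m (m + 1) S C ok) = true) {t g : H} (ht : t ^ (m + 1) = 1) (h1 : t ≠ 1)
    (hg : g * t * g⁻¹ = t ^ e) {ω : k} (hω : IsPrimitiveRoot ω (m + 1)) :
    ok (finrank k ((ρ t).eigenspace ω)) = true := by
  have := Fact.mk hr
  have h2 : ∀ μ ν : k, IsPrimitiveRoot μ (m + 1) → IsPrimitiveRoot ν (m + 1) →
      finrank k ((ρ t).eigenspace μ) ≤ finrank k ((ρ t).eigenspace ν) := fun μ ν hμ hν => by
    obtain ⟨s, b1, rfl⟩ := hμ.eq_pow_of_pow_eq_one hν.pow_eq_one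
    obtain ⟨y, -, rfl⟩ := he s b1 fun e => hν.ne_one hr.one_lt (by rw [e, pow_zero])
    rw [← pow_eq_pow_mod _ hμ.pow_eq_one]
    refine eig_le_conj ρ (g := g ^ y) ?_ μ
    clear b1 hν
    induction y with
    | zero => simp
    | succ y ih => rw [pow_succ', mul_inv_rev, pow_succ' e, pow_mul, ← hg, conj_pow, ← ih]; group
  obtain ⟨c, a1, a2, a3⟩ := hR.eig _ hr hp.symm t ht h1
  obtain ⟨j, hj, hm⟩ := (wellFounded_lt (α := Fin 7)).has_min {j | c j ≠ 1} (Function.ne_iff.1 a1)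
  have hζ : IsPrimitiveRoot (c j) (m + 1) := by
    have := IsPrimitiveRoot.orderOf (c j)
    rwa [orderOf_eq_prime (congrFun a2 j) hj] at this
  obtain ⟨v, b1, b2⟩ := exists_exp' hζ a2
  have b3 := scan7_spec h b1 (j := j) (hζ.pow_inj (b1 j) hr.one_lt (by rw [pow_one]; exact (congrFun b2 j).symm))
    fun i hi => hζ.pow_inj (b1 i) hr.pos (by rw [pow_zero, ← congrFun b2 i]; by_contra e; exact hm i e hi)
  have b4 : ∀ g : ℕ → ℕ, g 0 = 0 → ∑ i : Fin 56, g ((∑ j, v j * wr T56 (m + 1) (7 * i + j)) % (m + 1)) =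
      (∑ s ∈ Finset.range m, g (s + 1)) * finrank k ((ρ t).eigenspace ω) := fun g hg => by
    have h' := IsPrimitiveRoot.coe_units_iff.2 hζ
    rw [hist_cpW hζ (f := ρ t) (by rw [← map_pow, ht, map_one]) (b2 ▸ a3), Finset.sum_range_succ', hg, mul_zero,
      add_zero, Finset.sum_mul]
    refine Finset.sum_congr rfl fun s hs => ?_
    have h3 := h'.pow_of_coprime (s + 1) (Nat.coprime_of_lt_prime (by omega) (by simpa using hs) hr).symm
    rw [le_antisymm (h2 _ _ h3 hω) (h2 _ _ hω h3), mul_comm]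
  have b5 := q7_cast m v
  rw [b4 (· ^ 2) rfl, Nat.cast_mul, (ZMod.natCast_eq_zero_iff _ _).2 hq, zero_mul, eq_comm, mul_eq_zero,
    ZMod.natCast_eq_zero_iff] at b5
  have b6 : Nat.mod (q7 m (v 0) (v 1) (v 2) (v 3) (v 4) (v 5) (v 6)) (m + 1) = 0 :=
    Nat.mod_eq_zero_of_dvd (b5.resolve_left fun e => h24 ((ZMod.natCast_eq_zero_iff 24 _).1 (by exact_mod_cast e)))
  have b7 : hs 56 (m + 1) hg6 (∑ j, v j * C j) = S * finrank k ((ρ t).eigenspace ω) := by
    rw [hs, sumN_eq, hS, ← b4 hg6 rfl]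
    simp only [byt_col hC hb b1]; rfl
  rw [Fin.sum_univ_seven] at b7
  rw [G7, b6, frc_eq, frc_eq] at b3
  erw [b7] at b3
  rwa [show Nat.mod (S * _) S = 0 from Nat.mul_mod_right _ _, show Nat.div (S * _) S = _ from
    Nat.mul_div_cancel_left _ hS0] at b3

theorem RT.g5 (hR : RT p T56 56 7 a ρ) (hp : p ≠ 5) {t g : H} (ht : t ^ 5 = 1) (h1 : t ≠ 1) (hg : g * t * g⁻¹ = t ^ 2)
    {ω : k} (hω : IsPrimitiveRoot ω 5) : 9 ≤ finrank k ((ρ t).eigenspace ω) :=
  Nat.le_of_ble_eq_true (hR.rat (m := 4) (by decide) hp C75_ok (by decide) (by decide) (by decide) (by decide +kernel)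
    (by decide) (by decide) chk75 ht h1 hg hω)

theorem RT.g7 (hR : RT p T56 56 7 a ρ) (hp : p ≠ 7) {t g : H} (ht : t ^ 7 = 1) (h1 : t ≠ 1) (hg : g * t * g⁻¹ = t ^ 3)
    {ω : k} (hω : IsPrimitiveRoot ω 7) : finrank k ((ρ t).eigenspace ω) = 6 ∨ 8 ≤ finrank k ((ρ t).eigenspace ω) := by
  simpa using hR.rat (m := 6) (by decide) hp C77_ok (by decide) (by decide) (by decide) (by decide +kernel)
    (by decide) (by decide) chk77 ht h1 hg hω

theorem RT.rk7 [Finite H] (hR : RT p T56 56 7 a ρ) (hp : p ≠ 2) (E : Subgroup H) (h : ∀ a ∈ E, a ^ 2 = 1) :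
    Nat.card E < 2 ^ 12 := by
  classical
  obtain ⟨ε, h1, h2⟩ := exists_eps ρ hp E h
  have := Fintype.ofFinite E
  let i : Fin (finrank k V) := ⟨0, by rw [hR.dim]; decide⟩
  have h3 := (dvd_sum_sq ε 1 0 (-64)).add (dvd_sum_sq ε (ε i) 0 (-64))
  rw [← Finset.sum_add_distrib, Finset.sum_eq_single 1 (fun a _ ha => ?_) (by simp)] at h3
  · refine card_lt_two_pow h (M := 6144) ?_ (by decide)
    simp only [map_one, Finset.sum_const, Finset.card_univ, Fintype.card_fin, hR.dim] at h3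
    rw [Nat.card_eq_fintype_card]
    exact Int.natCast_dvd_natCast.1 h3
  have h4 := hR.scan (m := 1) Nat.prime_two hp C72_ok (by decide) _ _ chk72 (h a a.2) (fun e => ha (Subtype.ext e))
    (IsPrimitiveRoot.neg_one p hp)
  have h5 := h2 a
  simp only [Finset.sum_range_succ, Finset.range_zero, Finset.sum_empty, id, mul_zero, zero_add, mul_one,
    Bool.or_eq_true, beq_iff_eq] at h4
  rw [pow_one] at h4
  rcases h4 with (e | e) | e
  · rw [h5, e, hR.dim]; simp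
  · rw [h5, e, hR.dim]; simp
  · rw [(h1 i a).resolve_left fun f => ?_]
    · simp
    have := Finset.sum_lt_sum (s := Finset.univ) (f := fun _ => -1) (g := fun j => ε j a)
      (fun j _ => by rcases h1 j a with f | f <;> simp [f]) ⟨i, Finset.mem_univ i, by simp [f]⟩
    rw [h5, e] at this
    simp [hR.dim] at this

variable {W : Type} [AddCommGroup W] [Module k W] [FiniteDimensional k W] {G : Type u} [Group G] [Finite G] [Finite H]
  {σ : G →* End k W}

theorem Md.rt (hM : Md p σ ρ) (hR : RT p T N n a σ) : RT p T N n a ρ := by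
  refine ⟨hM.dim.trans hR.dim, fun r hr hrp t h h1 => ?_, fun l hl hlp h2 E h3 h4 => ?_⟩
  · obtain ⟨s, a1, a2⟩ := hM.elt ((Nat.coprime_primes hr Fact.out).2 hrp) h
    obtain ⟨c, b1, b2, b3⟩ := hR.eig r hr hrp s (orderOf_dvd_iff_pow_eq_one.1 (a1 ▸ orderOf_dvd_of_pow_eq_one h))
      fun e => h1 (orderOf_eq_one_iff.1 (by rw [← a1, e, orderOf_one]))
    exact ⟨c, b1, b2, by rw [← b3, ← pow_one t, a2, pow_one]⟩
  · obtain ⟨E', a1, a2, a3⟩ := hM.rk hl hlp E h3 h4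
    exact a1 ▸ hR.rk l hl hlp h2 E' a2 a3

theorem reduceRT {Ω : Type} [DecidableEq Ω] [Fintype Ω] {ix : List ℕ} {u : List (List ℤ)}
    (hs : spanOk T N n ix u = true) {b : ℕ} (h7 : 7 ≤ b) (hb : b + 2 ≤ Fintype.card Ω) (hN : N * N < 2 ^ b) (ha : a < b)
    (hR : RT p T N n a σ) (h2 : p ≠ 2 → ∀ E : Subgroup G, (∀ a ∈ E, a ^ 2 = 1) → Nat.card E < 2 ^ b)
    (fin : ∀ (V : Type) [AddCommGroup V] [Module k V] [FiniteDimensional k V] (H : Type u) [Group H] [Finite H]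
      (ρ : H →* End k V) (π : H →* Perm Ω), RT p T N n a ρ → Cx π → False)
    {π : G →* Perm Ω} (ev : ∀ h, sign (π h) = 1) (surj : ∀ σ, sign σ = 1 → ∃ h, π h = σ) : False := by
  refine reduce (p := p) (σ := σ) (by omega) (fun r hr hrp g hg => ?_) ?_ (fun l hl hlp E h1 h3 => ?_)
    (fun V _ _ _ H _ _ ρ π hM _ hx _ _ => fin V H ρ π (hM.rt hR) hx) (md_self σ) ev surj
  · obtain ⟨c, a1, -, a3⟩ := hR.eig r hr hrp g (hg ▸ pow_orderOf_eq_one g) fun e => by
      rw [e, orderOf_one] at hg; exact hr.one_lt.ne hg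
    rw [a3, map_one, LinearMap.charpoly_one, hR.dim, ← C_1]
    exact cpW_ne hs a1
  · rw [hR.dim]
    exact hN.trans_le (Nat.pow_le_pow_right (by decide) (by omega))
  · refine lt_of_lt_of_le ?_ (Nat.pow_le_pow_right hl.pos (show b ≤ _ by omega))
    by_cases h : l = 2
    · subst h
      exact h2 hlp.symm E h3
    · exact (hR.rk l hl hlp h E h1 h3).trans_lt (Nat.pow_lt_pow_right hl.one_lt ha)

end H5.AE
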