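import Mathlib
import Cfsg.Agent.Lib.AltE6.Fac
import Cfsg.Agent.Lib.AltE7.Lie

/-!
Eigenvalues of elements of small prime order, from a table of weights.
-/

set_option autoImplicit false
set_option linter.unusedSectionVars false

namespace H5.AE

open Module Polynomial H82.AG H38 H5.E8T

/-- Weights modulo `r`. -/
def wr (T r i : ℕ) : ℕ := (lam T i % r).toNat

/-- The columns of the table, packed. -/
def colOk (T N n r : ℕ) (C : ℕ → ℕ) : Bool :=
  allLt n fun j => C j != 0 && C j == sumN N fun i => wr T r (n * i + j) * 256 ^ i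

/-- Enumeration of all combinations of the columns. -/
def allV (r : ℕ) (C : ℕ → ℕ) (f : ℕ → Bool) (n : ℕ) : ℕ → Bool :=
  Nat.rec f (fun j ih P => allLt r fun a => frc (Nat.add P (Nat.mul a (C j))) ih) n

/-- A sum over the residues of the bytes. -/
def hs (N r : ℕ) (g : ℕ → ℕ) (P : ℕ) : ℕ := sumN N fun i => g (Nat.mod (byt P i) r)

lemma allV_spec {r : ℕ} {C : ℕ → ℕ} {f : ℕ → Bool} (n : ℕ) : ∀ P, allV r C f n P = true → ∀ x : Fin n → ℕ,
    (∀ j, x j < r) → f (P + ∑ j, x j * C j) = true := by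
  induction n with
  | zero => intro P h x _; rw [Fin.sum_univ_zero]; exact h
  | succ n ih =>
    intro P h x hx
    have := ih _ ((allLt_iff _ _).1 h _ (hx (Fin.last n))) (fun j => x j.castSucc) fun j => hx _
    rw [Fin.sum_univ_castSucc, add_comm (∑ _, _), ← add_assoc]
    exact this

lemma wr_lt (T m i : ℕ) : wr T (m + 1) i ≤ m := by
  have := Int.emod_lt_of_pos (lam T i) (show (0 : ℤ) < (m + 1 : ℕ) by positivity)
  unfold wr; omega

lemma wr_cast (T m i : ℕ) : (wr T (m + 1) i : ℤ) = lam T i % (m + 1 : ℕ) :=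
  Int.toNat_of_nonneg (Int.emod_nonneg _ (by positivity))

lemma byt_col {T N n m : ℕ} {C : ℕ → ℕ} (hC : colOk T N n (m + 1) C = true) (hb : n * (m * m) < 256) {v : Fin n → ℕ}
    (hv : ∀ j, v j < m + 1) (i : Fin N) : byt (∑ j, v j * C j) i = ∑ j, v j * wr T (m + 1) (n * i + j) := by
  simp only [colOk, allLt_iff, Bool.and_eq_true, beq_iff_eq, sumN_eq] at hC
  let f : Fin N → Fin 256 := fun i => ⟨∑ j, v j * wr T (m + 1) (n * i + j), lt_of_le_of_lt
    ((Finset.sum_le_card_nsmul _ _ (m * m) fun j _ => Nat.mul_le_mul (Nat.le_of_lt_succ (hv j)) (wr_lt _ _ _)).trans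
      (by simp)) hb⟩
  have h1 : ∑ j, v j * C j = finFunctionFinEquiv f := by
    rw [finFunctionFinEquiv_apply, Finset.sum_congr rfl fun j _ => by rw [(hC j j.2).2, Finset.mul_sum],
      Finset.sum_comm]
    simp only [f, Finset.sum_mul, mul_assoc]
  have h2 := congrArg Fin.val (congrFun (finFunctionFinEquiv.symm_apply_apply f) i)
  rw [h1, byt, Nat.mul_eq, show ∀ a b, Nat.shiftRight a b = a >>> b from fun _ _ => rfl, Nat.shiftRight_eq_div_pow,
    pow_mul]
  exact h2

variable {p : ℕ} [Fact p.Prime] {k V : Type*} [Field k] [IsAlgClosed k] [CharP k p] [AddCommGroup V] [Module k V]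
  [FiniteDimensional k V] {H : Type*} [Group H] {ρ : H →* End k V} {T N n a : ℕ}

lemma hist_cpW {m : ℕ} {ζ : kˣ} (h : IsPrimitiveRoot ζ (m + 1)) {f : End k V} (hf : f ^ (m + 1) = 1) {v : Fin n → ℕ}
    (e : f.charpoly = cpW T N fun j => ζ ^ v j) (g : ℕ → ℕ) :
    ∑ i : Fin N, g ((∑ j, v j * wr T (m + 1) (n * i + j)) % (m + 1)) =
      ∑ s ∈ Finset.range (m + 1), finrank k (f.eigenspace ((ζ : k) ^ s)) * g s := by
  classical
  have h' := IsPrimitiveRoot.coe_units_iff.2 h
  rw [← Finset.sum_fiberwise_of_maps_to (t := Finset.range (m + 1))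
    (g := fun i : Fin N => (∑ j, v j * wr T (m + 1) (n * i + j)) % (m + 1))
    fun i _ => Finset.mem_range.2 (Nat.mod_lt _ (by omega))]
  refine Finset.sum_congr rfl fun s hs => ?_
  rw [Finset.sum_congr rfl (g := fun _ => g s) fun i hi => by rw [(Finset.mem_filter.1 hi).2], Finset.sum_const,
    smul_eq_mul, finrank_eig h'.neZero'.out hf, e, ← count_roots, cpW, Finset.prod_eq_multiset_prod,
    ← Function.comp_def (fun y : k => X - C y), ← Multiset.map_map, roots_multiset_prod_X_sub_C, Multiset.count_map]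
  refine congrArg (· * _) (congrArg Multiset.card ((Finset.filter_val _ _).trans (Multiset.filter_congr fun i _ => ?_)))
  have : ∏ j, (ζ ^ v j) ^ lam T (n * i + j) = ζ ^ ∑ j, v j * wr T (m + 1) (n * i + j) := by
    rw [← Finset.prod_pow_eq_pow_sum]
    refine Finset.prod_congr rfl fun j _ => ?_
    rw [zpow_eq_zpow_emod' _ (show (ζ ^ v j) ^ (m + 1) = 1 by rw [← pow_mul, mul_comm, pow_mul, h.pow_eq_one, one_pow]),
      ← wr_cast, zpow_natCast, pow_mul]
  rw [this, Units.val_pow_eq_pow_val, pow_eq_pow_mod (∑ _, _) h'.pow_eq_one]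
  exact ⟨fun e => by rw [e], fun e => (h'.pow_inj (Finset.mem_range.1 hs) (Nat.mod_lt _ (by omega)) e).symm⟩

lemma exists_exp' {m : ℕ} {ζ : kˣ} (hζ : IsPrimitiveRoot ζ (m + 1)) {c : Fin n → kˣ} (hc : c ^ (m + 1) = 1) :
    ∃ v : Fin n → ℕ, (∀ j, v j < m + 1) ∧ c = fun j => ζ ^ v j := by
  choose v h1 h2 using fun j => hζ.eq_pow_of_mem_rootsOfUnity (ξ := c j) (congrFun hc j)
  exact ⟨v, h1, funext fun j => (h2 j).symm⟩

theorem RT.scan (hR : RT p T N n a ρ) {m : ℕ} (hr : (m + 1).Prime) (hp : p ≠ m + 1) {C : ℕ → ℕ}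
    (hC : colOk T N n (m + 1) C = true) (hb : n * (m * m) < 256) (g : ℕ → ℕ) (ok : ℕ → Bool)
    (h : allV (m + 1) C (fun P => P == 0 || frc (hs N (m + 1) g P) ok) n 0 = true) {t : H} (ht : t ^ (m + 1) = 1)
    (h1 : t ≠ 1) {ζ : k} (hζ : IsPrimitiveRoot ζ (m + 1)) :
    ok (∑ s ∈ Finset.range (m + 1), finrank k ((ρ t).eigenspace (ζ ^ s)) * g s) = true := by
  obtain ⟨ζ, rfl⟩ := hζ.isUnit (by omega)
  replace hζ := IsPrimitiveRoot.coe_units_iff.1 hζ
  obtain ⟨c, a1, a2, a3⟩ := hR.eig _ hr hp.symm t ht h1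
  obtain ⟨v, b1, rfl⟩ := exists_exp' hζ a2
  have h2 := allV_spec n 0 h v b1
  rw [zero_add, Bool.or_eq_true, beq_iff_eq, frc_eq, hs, sumN_eq] at h2
  simp only [byt_col hC hb b1] at h2
  rw [← hist_cpW hζ (by rw [← map_pow, ht, map_one]) a3]
  refine h2.resolve_left fun e => a1 (funext fun j => ?_)
  simp only [colOk, allLt_iff, Bool.and_eq_true, bne_iff_ne] at hC
  rw [(mul_eq_zero.1 (Finset.sum_eq_zero_iff.1 e j (Finset.mem_univ j))).resolve_right (hC j j.2).1]; simp

/-- The weights span the weight lattice. -/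
def spanOk (T N n : ℕ) (ix : List ℕ) (u : List (List ℤ)) : Bool := allLt n fun j => Nat.blt (ix.getD j 0) N &&
  allLt n fun j' => sumLt n (fun b => (u.getD j []).getD b 0 * lam T (n * ix.getD b 0 + j')) == if j = j' then 1 else 0

lemma cpW_ne {ix : List ℕ} {u : List (List ℤ)} (hs : spanOk T N n ix u = true) {c : Fin n → kˣ} (h : c ≠ 1) :
    cpW T N c ≠ (X - C 1) ^ N := fun e => by
  simp only [spanOk, allLt_iff, Bool.and_eq_true, beq_iff_eq, sumLt_eq, Nat.blt_eq] at hs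
  have h1 : ∀ i : Fin N, ∏ j, c j ^ lam T (n * i + j) = 1 := fun i => by
    have h2 : (cpW T N c).IsRoot ((∏ j, c j ^ lam T (n * i + j) : kˣ) : k) := by
      rw [cpW, IsRoot.def, eval_prod]
      exact Finset.prod_eq_zero (Finset.mem_univ i) (by rw [eval_sub, eval_X, eval_C, sub_self])
    rw [e, IsRoot.def, eval_pow, pow_eq_zero_iff i.pos.ne'] at h2
    exact Units.ext (by simpa [sub_eq_zero] using h2)
  refine h (funext fun j => ?_)
  have h2 : ∏ b : Fin n, (∏ j' : Fin n, c j' ^ lam T (n * ix.getD b 0 + j')) ^ (u.getD j []).getD b 0 = 1 :=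
    Finset.prod_eq_one fun b _ => by rw [h1 ⟨_, (hs b b.2).1⟩, one_zpow]
  have h3 : ∀ (x : kˣ) (f : Fin n → ℤ), x ^ ∑ b, f b = ∏ b, x ^ f b := fun x f =>
    map_prod (zpowersHom kˣ x) (fun b => Multiplicative.ofAdd (f b)) Finset.univ
  simp only [← Finset.prod_zpow, ← zpow_mul] at h2
  rw [Finset.prod_comm, Finset.prod_congr rfl (g := fun j' => if j = j' then c j' else 1) fun j' _ => by
    rw [← h3, Finset.sum_congr rfl fun _ _ => mul_comm _ _, (hs j j.2).2 j' j'.2]
    simp [Fin.ext_iff]] at h2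
  simpa using h2

theorem exists_eps (ρ : H →* End k V) (hp : p ≠ 2) (E : Subgroup H) (h : ∀ a ∈ E, a ^ 2 = 1) :
    ∃ ε : Fin (finrank k V) → E →* ℤ, (∀ i a, ε i a = 1 ∨ ε i a = -1) ∧
      ∀ a : E, ∑ i, ε i a = finrank k V - 2 * (finrank k ((ρ a).eigenspace (-1)) : ℤ) := by
  classical
  have h2 : ∀ a : E, a⁻¹ = a := fun a => inv_eq_of_mul_eq_one_right (Subtype.ext (by simpa [sq] using h a a.2))
  let x : E →* End k V := ρ.comp E.subtype
  obtain ⟨b, χ, hb⟩ := exists_basis x (fun a b => Commute.map (show a * b = b * a by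
    rw [← h2 (a * b), mul_inv_rev, h2, h2]) x) (cast_ne Nat.prime_two hp) (N := 2) fun a => by
      rw [← map_pow, show a ^ 2 = 1 from Subtype.ext (h a a.2), map_one]
  have hne : (-1 : k) ≠ 1 := (IsPrimitiveRoot.neg_one p hp).ne_one (by decide)
  have h3 : ∀ i, χ i 1 = 1 := fun i => smul_left_injective k (b.ne_zero i) (by
    change _ • _ = _ • _; rw [← hb, map_one, one_smul]; rfl)
  have h4 : ∀ i a c, χ i (a * c) = χ i a * χ i c := fun i a c => smul_left_injective k (b.ne_zero i) (by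
    change _ • _ = _ • _; rw [← hb, map_mul, End.mul_apply, hb, map_smul, hb, smul_smul, mul_comm])
  have h5 : ∀ i a, χ i a = 1 ∨ χ i a = -1 := fun i a => mul_self_eq_one_iff.1 (by
    rw [← h4, ← h3 i]; nth_rw 1 [← h2 a]; rw [inv_mul_cancel])
  let ε : Fin (finrank k V) → E →* ℤ := fun i =>
    { toFun := fun a => if χ i a = -1 then -1 else 1
      map_one' := by rw [h3, if_neg hne.symm]
      map_mul' := fun a c => by rw [h4]; rcases h5 i a with e | e <;> rcases h5 i c with f | f <;> simp [e, f, hne.symm] }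
  refine ⟨ε, fun i a => ?_, fun a => ?_⟩
  · change ite _ _ _ = _ ∨ ite _ _ _ = _
    split_ifs <;> simp
  · have h7 := finrank_wt hb ((ρ a).eigenspace (-1)) {a} (fun _ => -1) fun v => by simp [x]
    have : ∀ i, ε i a = 1 - 2 * if χ i a = -1 then 1 else 0 := fun i => by
      change (if χ i a = -1 then -1 else 1 : ℤ) = _; split_ifs <;> rfl
    simp [this, h7, Finset.sum_ite, Fintype.card_subtype, mul_comm]

lemma dvd_sum_hom {E : Type*} [Group E] [Fintype E] (φ : E →* ℤ) : (Fintype.card E : ℤ) ∣ ∑ a, φ a := by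
  classical
  rw [sum_hom_units]; split_ifs <;> simp

lemma dvd_sum_sq {E ι : Type*} [Group E] [Fintype E] [Fintype ι] (ε : ι → E →* ℤ) (φ : E →* ℤ) (c d : ℤ) :
    (Fintype.card E : ℤ) ∣ ∑ a, φ a * ((∑ i, ε i a) ^ 2 + c * ∑ i, ε i a + d) := by
  simp only [sq, Finset.sum_mul_sum]
  simp only [mul_add, Finset.sum_add_distrib, Finset.mul_sum]
  refine (dvd_add ?_ ?_).add ?_
  · rw [Finset.sum_comm]
    refine Finset.dvd_sum fun i _ => ?_
    rw [Finset.sum_comm]
    exact Finset.dvd_sum fun j _ => dvd_sum_hom (φ * (ε i * ε j))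
  · rw [Finset.sum_comm]
    refine Finset.dvd_sum fun i _ => ?_
    simp only [mul_left_comm _ c, ← Finset.mul_sum]
    exact (dvd_sum_hom (φ * ε i)).mul_left c
  · rw [← Finset.sum_mul]
    exact (dvd_sum_hom φ).mul_right d

lemma card_lt_two_pow {E : Subgroup H} [Finite H] (h : ∀ a ∈ E, a ^ 2 = 1) {b M : ℕ} (h1 : Nat.card E ∣ M)
    (h2 : ¬ 2 ^ b ∣ M) : Nat.card E < 2 ^ b := by
  obtain ⟨m, hm⟩ := IsPGroup.exists_card_eq (p := 2) (G := E) fun a => ⟨1, Subtype.ext (by simpa using h a a.2)⟩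
  rw [hm] at h1 ⊢
  exact Nat.pow_lt_pow_right (by decide) (by by_contra e; exact h2 ((pow_dvd_pow 2 (by omega)).trans h1))

end H5.AE
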