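import Mathlib
import Cfsg.Agent.Lib.AltE6.Fac
import Cfsg.Agent.Lib.H5.E8L2

/-!
Weight multiplicities of an elementary abelian group with symmetries.
-/

set_option autoImplicit false
set_option linter.unusedSectionVars false

namespace H5.AE

open Module H5.E8T

variable {k V : Type*} [Field k] [AddCommGroup V] [Module k V] {q n : ℕ}

/-- Common eigenvectors. -/
def Ev (ω : k) (x : Fin n → End k V) (e : Fin n → Fin q) (v : V) : Prop := ∀ a, x a v = ω ^ (e a : ℕ) • v

/-- Operators acting on common eigenvectors by a known exponent. -/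
def Ex (ω : k) (x : Fin n → End k V) (y : End k V) (φ : (Fin n → Fin q) → ℕ) : Prop :=
  ∀ e v, Ev ω x e v → y v = ω ^ φ e • v

variable {ω : k} {x : Fin n → End k V}

lemma Ex.gen (a : Fin n) : Ex ω x (x a) fun e : Fin n → Fin q => e a := fun _ _ h => h a

lemma Ex.mul {y y' : End k V} {φ φ' : (Fin n → Fin q) → ℕ} (h : Ex ω x y φ) (h' : Ex ω x y' φ') :
    Ex ω x (y * y') fun e => φ e + φ' e := fun e v hv => by
  rw [End.mul_apply, h' e v hv, map_smul, h e v hv, smul_smul, pow_add, mul_comm]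

lemma Ex.pow {y : End k V} {φ : (Fin n → Fin q) → ℕ} (h : Ex ω x y φ) (m : ℕ) : Ex ω x (y ^ m) fun e => φ e * m := by
  induction m with
  | zero => intro e v _; simp
  | succ m ih => rw [pow_succ]; exact ih.mul h

/-- Decoding of weights. -/
def dc [NeZero q] (c : ℕ) : Fin n → Fin q := fun a => Fin.ofNat q (c / q ^ (a : ℕ))

/-- The action of a symmetry on weights. -/
def act [NeZero q] (φ : Fin n → (Fin n → Fin q) → ℕ) (e : Fin n → Fin q) : Fin n → Fin q := fun a => Fin.ofNat q (φ a e)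

lemma Ev.step [NeZero q] (hω : ω ^ q = 1) {g : End k V} {φ : Fin n → (Fin n → Fin q) → ℕ}
    (h : ∀ a, ∃ y, x a * g = g * y ∧ Ex ω x y (φ a)) {e : Fin n → Fin q} {v : V} (hv : Ev ω x e v) :
    Ev ω x (act φ e) (g v) := fun a => by
  obtain ⟨y, h1, h2⟩ := h a
  rw [← End.mul_apply, h1, End.mul_apply, h2 e v hv, map_smul, act, Fin.val_ofNat, ← pow_eq_pow_mod _ hω]

/-- A certificate for the orbits. -/
def cert [NeZero q] {J : ℕ} (φ : Fin J → Fin n → (Fin n → Fin q) → ℕ) (c : ℕ) (cl dp rep : ℕ → ℕ) : Bool :=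
  H38.allLt (q ^ n) fun x => Nat.blt (cl x) c && (x == rep (cl x) || (List.finRange J).any fun j =>
    frc (finFunctionFinEquiv (act (φ j) (dc x))) fun y => Nat.blt (dp y) (dp x) && cl y == cl x)

/-- The number of weights in a class with a given property. -/
def cfN [NeZero q] (P : (Fin n → Fin q) → Bool) (cl : ℕ → ℕ) (j : ℕ) : ℕ :=
  sumN (q ^ n) fun x => cond (cl x == j && P (dc x)) 1 0

lemma act_inj [NeZero q] (sg : Fin n → Fin n) (sn : Fin n → ℕ) (h1 : Function.Surjective sg)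
    (h2 : ∀ a, ∀ s t : Fin q, s * sn a % q = t * sn a % q → s = t) :
    Function.Injective (act fun a (e : Fin n → Fin q) => e (sg a) * sn a) := fun e e' h => funext fun b => by
  obtain ⟨a, rfl⟩ := h1 b
  exact h2 a _ _ (congrArg Fin.val (congrFun h a))

theorem mult_amb [IsAlgClosed k] [FiniteDimensional k V] [NeZero q] (hω : IsPrimitiveRoot ω q) (Y : Submodule k V)
    (hc : ∀ a b, Commute (x a) (x b)) (hx : ∀ a, x a ^ q = 1) (hY : ∀ a, ∀ v ∈ Y, x a v ∈ Y) {J : ℕ}
    (g : Fin J → End k V) (hg : ∀ j, Function.Injective (g j)) (hgY : ∀ j, ∀ v ∈ Y, g j v ∈ Y)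
    {φ : Fin J → Fin n → (Fin n → Fin q) → ℕ} (h : ∀ j a, ∃ y, x a * g j = g j * y ∧ Ex ω x y (φ j a))
    (hi : ∀ j, Function.Injective (act (φ j))) {c : ℕ} {cl dp rep : ℕ → ℕ} (hC : cert φ c cl dp rep = true) :
    ∃ M : Fin c → ℕ, ∀ {m : ℕ} (y : Fin m → End k V) (ψ : Fin m → (Fin n → Fin q) → ℕ) (μ : Fin m → Fin q),
      (∀ s, Ex ω x (y s) (ψ s)) → ∀ U : Submodule k V, (∀ v, v ∈ U ↔ v ∈ Y ∧ ∀ s, y s v = ω ^ (μ s : ℕ) • v) →
      finrank k U = ∑ j : Fin c, cfN (fun e => decide (∀ s, ψ s e % q = μ s)) cl j * M j := by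
  classical
  have hq : ∀ a, (x a).restrict (hY a) ^ q = 1 := fun a => LinearMap.ext fun v => Subtype.ext (by
    rw [Module.End.pow_restrict, LinearMap.coe_restrict_apply, hx]; rfl)
  obtain ⟨b, χ, hb⟩ := exists_basis (fun a => (x a).restrict (hY a)) (fun a a' => LinearMap.ext fun v => Subtype.ext
    (LinearMap.congr_fun (hc a a') v)) (N := q) hω.neZero'.out hq
  have hχ : ∀ i a, χ i a ^ q = 1 := fun i a => smul_left_injective k (b.ne_zero i) (by
    have : ∀ m : ℕ, ((x a).restrict (hY a) ^ m) (b i) = χ i a ^ m • b i := fun m => by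
      induction m with
      | zero => simp
      | succ m ih => rw [pow_succ, End.mul_apply, hb, map_smul, ih, smul_smul, pow_succ']
    change _ • _ = _ • _
    rw [← this, hq, one_smul]; rfl)
  choose w hw1 hw using fun i a => hω.eq_pow_of_pow_eq_one (hχ i a)
  let W : _ → Fin n → Fin q := fun i a => ⟨w i a, hw1 i a⟩
  have hW : ∀ i, Ev ω x (W i) (b i : V) := fun i a => by rw [hw]; exact congrArg Subtype.val (hb i a)
  have h5 : ∀ {m : ℕ} (y : Fin m → End k V) (ψ : Fin m → (Fin n → Fin q) → ℕ) (μ : Fin m → Fin q),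
      (∀ s, Ex ω x (y s) (ψ s)) → ∀ U : Submodule k V, (∀ v, v ∈ U ↔ v ∈ Y ∧ ∀ s, y s v = ω ^ (μ s : ℕ) • v) →
      finrank k U = (Finset.univ.filter fun i => ∀ s, ψ s (W i) % q = μ s).card := fun y ψ μ hy U hU => by
    let y' : _ → End k Y := fun s => b.constr ℕ fun i => ω ^ ψ s (W i) • b i
    have e1 : ∀ s (v : Y), (y' s v : V) = y s v := fun s => LinearMap.congr_fun
      (b.ext (f₁ := Y.subtype ∘ₗ y' s) (f₂ := y s ∘ₗ Y.subtype) fun i => by simp [y', hy s _ _ (hW i)])
    rw [← (Submodule.comapSubtypeEquivOfLe fun v hv => ((hU v).1 hv).1).finrank_eq,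
      finrank_wt (x := y') (b := b) (χ := fun i s => ω ^ ψ s (W i)) (fun i s => by simp [y']) _ Set.univ
        (fun s => ω ^ (μ s : ℕ)) fun v => by simp [hU, Subtype.ext_iff, e1], ← Nat.card_eq_finsetCard]
    refine Nat.card_congr (Equiv.subtypeEquivRight fun i => ?_)
    simp only [Set.mem_ofPred_eq, Set.mem_univ, forall_const, Finset.mem_filter, Finset.mem_univ, true_and]
    refine forall_congr' fun s => ?_
    rw [pow_eq_pow_mod _ hω.pow_eq_one]
    exact ⟨hω.pow_inj (Nat.mod_lt _ (NeZero.pos q)) (μ s).2, fun e => by rw [e]⟩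
  let m : (Fin n → Fin q) → ℕ := fun e => (Finset.univ.filter fun i => W i = e).card
  have h0 : ∀ e, finrank k (Y ⊓ ⨅ a, (x a).eigenspace (ω ^ (e a : ℕ)) : Submodule k V) = m e := fun e => by
    rw [h5 x _ e Ex.gen _ fun v => by simp]
    congr 1
    ext i
    simp [funext_iff, Fin.ext_iff, Nat.mod_eq_of_lt (W i _).2]
  have h1 : ∀ j e, m e ≤ m (act (φ j) e) := fun j e => by
    rw [← h0, ← h0]
    refine LinearMap.finrank_le_finrank_of_injective (f := (g j).restrict fun v hv => ?_) fun u v h =>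
      Subtype.ext (hg j (congrArg Subtype.val h))
    simp only [Submodule.mem_inf, Submodule.mem_iInf, End.mem_eigenspace_iff] at hv ⊢
    exact ⟨hgY j v hv.1, Ev.step hω.pow_eq_one (h j) hv.2⟩
  have h2 : ∀ j e, m e = m (act (φ j) e) := fun j e => (Finset.sum_eq_sum_iff_of_le fun e _ => h1 j e).1
    ((Finite.injective_iff_bijective.1 (hi j)).sum_comp m).symm e (Finset.mem_univ e)
  simp only [cert, H38.allLt_iff, Bool.and_eq_true, Bool.or_eq_true, Nat.blt_eq, beq_iff_eq, List.any_eq_true,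
    frc_eq] at hC
  have hd : ∀ e : Fin n → Fin q, dc (finFunctionFinEquiv e) = e := finFunctionFinEquiv.symm_apply_apply
  have h4 : ∀ d, ∀ z < q ^ n, dp z = d → m (dc z) = m (dc (rep (cl z))) := fun d => by
    induction d using Nat.strong_induction_on with
    | _ d ih =>
    intro z hz e
    rcases (hC z hz).2 with h3 | ⟨j, -, h3, h4⟩
    · rw [← h3]
    · rw [← h4, ← ih _ (e ▸ h3) _ (Fin.is_lt _) rfl, hd, ← h2]
  refine ⟨fun j => m (dc (rep j)), fun y ψ μ hy U hU => ?_⟩
  rw [h5 y ψ μ hy U hU, Finset.card_eq_sum_card_fiberwise (f := W)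
    (t := Finset.univ.filter fun e : Fin n → Fin q => ∀ s, ψ s e % q = μ s) (fun i hi => by simpa using hi),
    Finset.sum_filter, ← finFunctionFinEquiv.symm.sum_comp]
  simp only [cfN, sumN_eq, Finset.sum_mul]
  rw [Finset.sum_comm]
  refine Finset.sum_congr rfl fun z _ => ?_
  rw [Finset.sum_eq_single ⟨cl z, (hC z z.2).1⟩ (fun j _ hj => by
    rw [beq_false_of_ne fun e => hj (Fin.ext e.symm)]; simp) (by simp), ← h4 _ z z.2 rfl,
    show finFunctionFinEquiv.symm z = dc z from rfl]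
  split_ifs with h3
  · simp only [beq_self_eq_true, h3, implies_true, decide_true, Bool.and_self, cond_true, one_mul]
    congr 1
    ext i
    simp only [Finset.mem_filter, Finset.mem_univ, true_and, and_iff_right_iff_imp]
    exact fun e => e ▸ h3
  · simp [h3]

end H5.AE
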