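import Mathlib
import Cfsg.Agent.Lib.AltE7.Mult
import Cfsg.Agent.Lib.AltE7.F7

/-!
Alternating sections of the groups of type `E₇`.
-/

set_option autoImplicit false
set_option linter.unusedSectionVars false

namespace H5.AE

open Module Equiv Equiv.Perm H82.AG H5.E8T Cfsg Cfsg.Lie
open List (formPerm)

universe u

variable {p : ℕ} [Fact p.Prime] {k V : Type} [Field k] [IsAlgClosed k] [CharP k p] [AddCommGroup V] [Module k V]
  [FiniteDimensional k V] {H : Type u} [Group H] {ρ : H →* End k V} {a : ℕ}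

/-- A monomial configuration of permutations. -/
def Mono {Ω : Type} [DecidableEq Ω] [Fintype Ω] (q : ℕ) {n J : ℕ} (cc : Fin n → Perm Ω) (gn : Fin J → Perm Ω)
    (sg : Fin J → Fin n → Fin n) (sn : Fin J → Fin n → ℕ) : Prop :=
  (∀ i, sign (cc i) = 1 ∧ cc i ^ q = 1 ∧ ∀ j, cc i * cc j = cc j * cc i) ∧ ∀ j, sign (gn j) = 1 ∧
    (∀ b, ∃ i, sg j i = b) ∧ ∀ i, cc i * gn j = gn j * cc (sg j i) ^ sn j i ∧
      ∀ s t : Fin q, s * sn j i % q = t * sn j i % q → s = t

lemma inj_of (ρ : H →* End k V) (g : H) : Function.Injective (ρ g) := fun x y h => by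
  rw [← act_inv ρ g x, h, act_inv]

theorem mult_mono {Ω : Type} [DecidableEq Ω] [Fintype Ω] {π : H →* Perm Ω} (hx : Cx π) (ρ : H →* End k V) {q n J : ℕ}
    [NeZero q] (hq : Odd q) {cc : Fin n → Perm Ω} {gn : Fin J → Perm Ω} {sg : Fin J → Fin n → Fin n}
    {sn : Fin J → Fin n → ℕ} (h : Mono q cc gn sg sn) {ω : k} (hω : IsPrimitiveRoot ω q) {c : ℕ} {cl dp rep : ℕ → ℕ}
    (hC : cert (q := q) (fun j a e => e (sg j a) * sn j a) c cl dp rep = true) :
    ∃ (τ : Fin n → H) (M : Fin c → ℕ), (∀ i, π (τ i) = cc i) ∧ (∀ i, Od (τ i)) ∧ (∀ i, τ i ^ q = 1) ∧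
      (∀ i j, Commute (τ i) (τ j)) ∧ ∀ {m : ℕ} (y : Fin m → End k V) (ψ : Fin m → (Fin n → Fin q) → ℕ)
        (μ : Fin m → Fin q), (∀ s, Ex ω (fun a => ρ (τ a)) (y s) (ψ s)) → ∀ U : Submodule k V,
          (∀ v, v ∈ U ↔ ∀ s, y s v = ω ^ (μ s : ℕ) • v) →
            finrank k U = ∑ j : Fin c, cfN (fun e => decide (∀ s, ψ s e % q = μ s)) cl j * M j := by
  choose τ hτ oτ using fun i => hx.exists_od (h.1 i).1 hq (h.1 i).2.1
  choose g hg using fun j => hx.surj _ (h.2 j).1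
  have h1 : ∀ i, τ i ^ q = 1 := fun i => hx.pow_eq (oτ i) (by rw [hτ, (h.1 i).2.1])
  have h2 : ∀ i j, Commute (τ i) (τ j) := fun i j => hx.comm (oτ j) (by rw [hτ, hτ, (h.1 i).2.2])
  obtain ⟨M, hM⟩ := mult_amb (x := fun a => ρ (τ a)) hω ⊤ (fun i j => (h2 i j).map ρ)
    (fun i => by rw [← map_pow, h1, map_one]) (fun _ _ _ => trivial) (fun j => ρ (g j)) (fun j => inj_of ρ _)
    (fun _ _ _ => trivial) (fun j a => ⟨_, by
      rw [← map_pow, ← map_mul, ← map_mul, hx.rel (oτ a) (oτ (sg j a)) (by rw [hτ, hτ, hg, ((h.2 j).2.2 a).1])],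
      (Ex.gen (sg j a)).pow (sn j a)⟩) (fun j => act_inj _ _ (h.2 j).2.1 fun a => ((h.2 j).2.2 a).2) hC
  exact ⟨τ, M, hτ, oτ, h1, h2, fun y ψ μ h3 U h4 => hM y ψ μ h3 U fun v => by simp [h4]⟩

/-- Commuting cycles. -/
def cc14 : Fin 2 → Perm (Fin 14) := ![formPerm [0, 1, 2, 3, 4, 5, 6], formPerm [7, 8, 9, 10, 11, 12, 13]]

/-- Elements normalising the group they generate. -/
def gn14 : Fin 3 → Perm (Fin 14) := ![formPerm [1, 3, 2, 6, 4, 5] * formPerm [8, 10, 9, 13, 11, 12], formPerm [1, 2, 4] * formPerm [3, 6, 5], formPerm [0, 7] * formPerm [1, 8] * formPerm [2, 9] * formPerm [3, 10] * formPerm [4, 11] * formPerm [5, 12] * formPerm [6, 13] * formPerm [1, 3, 2, 6, 4, 5]]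

/-- The permutations of the blocks. -/
def sg14 : Fin 3 → Fin 2 → Fin 2 := ![![0, 1], ![0, 1], ![1, 0]]

/-- The multipliers. -/
def sn14 : Fin 3 → Fin 2 → ℕ := ![![5, 5], ![4, 1], ![1, 5]]

/-- The classes. -/
def cl14 : ℕ → ℕ := byt 0x2020202020201020202020202010202020202020102020202020201020202020202010202020202020101010101010100

lemma cert14 : cert (q := 7) (fun j a e => e (sg14 j a) * sn14 j a) 3 cl14 (byt 0x3040403030503050505040406040405040304050302030301020402030403020204020203020101000102030201010000)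
    (fun j => [0, 1, 8].getD j 0) = true := by decide +kernel

lemma mono14 : Mono 7 cc14 gn14 sg14 sn14 := by unfold Mono; decide +kernel

lemma cf14 : (∀ j : Fin 3, cfN (fun _ : Fin 2 → Fin 7 => true) cl14 j = ![1, 12, 36] j) ∧
    (∀ j : Fin 3, cfN (fun e : Fin 2 → Fin 7 => decide ((e 0 : ℕ) % 7 = 1)) cl14 j = ![0, 1, 6] j) ∧
    ∀ j : Fin 3, cfN (fun e : Fin 2 → Fin 7 => decide ((e 0 + e 1 : ℕ) % 7 = 1)) cl14 j = ![0, 2, 5] j := by
  decide +kernel

theorem no14 (hp : p ≠ 7) {π : H →* Perm (Fin 14)} (hR : RT p T56 56 7 a ρ) (hx : Cx π) : False := by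
  have : NeZero ((7 : ℕ) : k) := ⟨cast_ne (by decide) hp⟩
  obtain ⟨ω, hω⟩ := HasEnoughRootsOfUnity.exists_primitiveRoot k 7
  obtain ⟨τ, M, hτ, oτ, h1, h2, h⟩ := mult_mono hx ρ (by decide) mono14 hω cert14
  have m1 := h ![] ![] ![] (by simp) ⊤ (by simp)
  have m2 := h ![ρ (τ 0)] ![_] ![1] (Fin.forall_fin_one.2 (Ex.gen 0)) ((ρ (τ 0)).eigenspace ω) (by simp)
  have m3 := h ![ρ (τ 0) * ρ (τ 1)] ![_] ![1] (Fin.forall_fin_one.2 ((Ex.gen 0).mul (Ex.gen 1)))
    ((ρ (τ 0 * τ 1)).eigenspace ω) (by simp)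
  obtain ⟨g, hg⟩ := hx.surj _ (mono14.2 0).1
  have h3 : ∀ i, g * τ i * g⁻¹ = τ i ^ 3 := fun i => hx.conj_eq (oτ i) ((oτ i).pow 3) (by
    rw [map_pow, hτ, hg]; revert i; decide +kernel)
  have m4 := hR.g7 hp (h1 0) (fun e => absurd (e ▸ hτ 0) (by rw [map_one]; decide +kernel)) (h3 0) hω
  have m5 := hR.g7 hp (t := τ 0 * τ 1) (by rw [(h2 0 1).mul_pow, h1, h1, mul_one])
    (fun e => absurd (congrArg π e) (by rw [map_one, map_mul, hτ, hτ]; decide +kernel)) (g := g)
    (by rw [(h2 0 1).mul_pow, ← h3, ← h3, conj_mul]) hω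
  simp only [Fin.forall_fin_one, Fin.forall_fin_zero, Matrix.cons_val_fin_one, decide_true, Fin.val_one, cf14.1,
    cf14.2.1, cf14.2.2, finrank_top, hR.dim] at m1 m2 m3
  simp [Fin.sum_univ_succ] at m1 m2 m3
  omega

/-- Commuting cycles. -/
def cc15 : Fin 3 → Perm (Fin 15) := ![formPerm [0, 1, 2, 3, 4], formPerm [5, 6, 7, 8, 9], formPerm [10, 11, 12, 13, 14]]

/-- Elements normalising the group they generate. -/
def gn15 : Fin 3 → Perm (Fin 15) := ![formPerm [1, 2, 4, 3] * formPerm [6, 7, 9, 8], formPerm [0, 5] * formPerm [1, 6] * formPerm [2, 7] * formPerm [3, 8] * formPerm [4, 9] * formPerm [1, 2, 4, 3], formPerm [0, 5, 10] * formPerm [1, 6, 11] * formPerm [2, 7, 12] * formPerm [3, 8, 13] * formPerm [4, 9, 14]]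

/-- The permutations of the blocks. -/
def sg15 : Fin 3 → Fin 3 → Fin 3 := ![![0, 1, 2], ![1, 0, 2], ![2, 0, 1]]

/-- The multipliers. -/
def sn15 : Fin 3 → Fin 3 → ℕ := ![![3, 3, 1], ![1, 3, 1], ![1, 1, 1]]

/-- The classes. -/
def cl15 : ℕ → ℕ := byt 0x303030302030303030203030303020303030302020202020103030303020303030302030303030203030303020202020201030303030203030303020303030302030303030202020202010303030302030303030203030303020303030302020202020102020202010202020201020202020102020202010101010100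

lemma cert15 : cert (q := 5) (fun j a e => e (sg15 j a) * sn15 j a) 4 cl15 (byt 0x505040404050605050504040405040305030504030403050306060506050607050505050506050504040606050404060504040404040405050505050305030303040502020303040202020203040604050306040502050103030405010002030402010102030505030603060404020601040205060100010203010000)
    (fun j => [0, 1, 6, 31].getD j 0) = true := by decide +kernel

lemma mono15 : Mono 5 cc15 gn15 sg15 sn15 := by unfold Mono; decide +kernel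

lemma cf15 : (∀ j : Fin 4, cfN (fun _ : Fin 3 → Fin 5 => true) cl15 j = ![1, 12, 48, 64] j) ∧
    ∀ j : Fin 4, cfN (fun e : Fin 3 → Fin 5 => decide ((e 0 : ℕ) % 5 = 1)) cl15 j = ![0, 1, 8, 16] j := by
  decide +kernel

theorem no15 (hp : p ≠ 5) {π : H →* Perm (Fin 15)} (hR : RT p T56 56 7 a ρ) (hx : Cx π) : False := by
  have : NeZero ((5 : ℕ) : k) := ⟨cast_ne (by decide) hp⟩
  obtain ⟨ω, hω⟩ := HasEnoughRootsOfUnity.exists_primitiveRoot k 5
  obtain ⟨τ, M, hτ, oτ, h1, h2, h⟩ := mult_mono hx ρ (by decide) mono15 hω cert15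
  have m1 := h ![] ![] ![] (by simp) ⊤ (by simp)
  have m2 := h ![ρ (τ 0)] ![_] ![1] (Fin.forall_fin_one.2 (Ex.gen 0)) ((ρ (τ 0)).eigenspace ω) (by simp)
  obtain ⟨g, hg⟩ := hx.surj _ (mono15.2 0).1
  have m4 := hR.g5 hp (h1 0) (fun e => absurd (e ▸ hτ 0) (by rw [map_one]; decide +kernel)) (g := g)
    (hx.conj_eq (oτ 0) ((oτ 0).pow 2) (by rw [map_pow, hτ, hg]; decide +kernel)) hω
  simp only [Fin.forall_fin_one, Fin.forall_fin_zero, Matrix.cons_val_fin_one, decide_true, Fin.val_one, cf15.1,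
    cf15.2, finrank_top, hR.dim] at m1 m2
  simp [Fin.sum_univ_succ] at m1 m2
  omega

theorem alt_le7 {F : Type u} [Field F] [Finite F] (p : ℕ) [Fact p.Prime] [CharP F p] {r : ℕ}
    (h : AltSec (chevE7.group F) r) : r ≤ 13 + (if p = 7 then 1 else 0) := by
  by_contra hr
  split_ifs at hr with hp
  · obtain ⟨H, _, _, ρ, π, hR, ev, surj⟩ := exists_r56 p (h.mono (show 15 ≤ r by omega))
    exact reduceRT span56 (b := 12) (by decide) (by decide) (by decide) (by decide) hR hR.rk7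
      (fun V _ _ _ H _ _ ρ π => no15 (by omega)) ev surj
  · obtain ⟨H, _, _, ρ, π, hR, ev, surj⟩ := exists_r56 p (h.mono (show 14 ≤ r by omega))
    exact reduceRT span56 (b := 12) (by decide) (by decide) (by decide) (by decide) hR hR.rk7
      (fun V _ _ _ H _ _ ρ π => no14 hp) ev surj

end H5.AE
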